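import Mathlib
import Cfsg.Prelude.Def_PLocal

set_option autoImplicit false

namespace Cfsg.Agent.Lib.Helper23

open Subgroup
open scoped commutatorElement

theorem commutator_closure_le {G : Type*} [Group G] (S : Set G) (W : Subgroup G)
    (hWn : ∀ h ∈ closure S, ∀ x ∈ W, h * x * h⁻¹ ∈ W) (hS : ∀ s ∈ S, ∀ t ∈ S, ⁅s, t⁆ ∈ W) :
    ⁅closure S, closure S⁆ ≤ W := by
  rw [commutator_le]
  have step1 : ∀ s ∈ S, ∀ h ∈ closure S, ⁅s, h⁆ ∈ W := by
    intro s hs h hh
    induction hh using closure_induction with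
    | mem t ht => exact hS s hs t ht
    | one => simp
    | mul a b ha hb iha ihb =>
      have : ⁅s, a * b⁆ = ⁅s, a⁆ * (a * ⁅s, b⁆ * a⁻¹) := by
        simp only [commutatorElement_def]; group
      rw [this]; exact W.mul_mem iha (hWn a ha _ ihb)
    | inv a ha iha =>
      have : ⁅s, a⁻¹⁆ = a⁻¹ * ⁅s, a⁆⁻¹ * a⁻¹⁻¹ := by
        simp only [commutatorElement_def]; group
      rw [this]; exact hWn a⁻¹ (inv_mem ha) _ (W.inv_mem iha)
  intro g hg h hh
  induction hg using closure_induction with
  | mem s hs => exact step1 s hs h hh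
  | one => simp
  | mul a b ha hb iha ihb =>
    have : ⁅a * b, h⁆ = a * ⁅b, h⁆ * a⁻¹ * ⁅a, h⁆ := by
      simp only [commutatorElement_def]; group
    rw [this]; exact W.mul_mem (hWn a ha _ ihb) iha
  | inv a ha iha =>
    have : ⁅a⁻¹, h⁆ = a⁻¹ * ⁅a, h⁆⁻¹ * a⁻¹⁻¹ := by
      simp only [commutatorElement_def]; group
    rw [this]; exact hWn a⁻¹ (inv_mem ha) _ (W.inv_mem iha)

/-- In a finite `p`-group `H ≤ G`, a proper subgroup lies in a proper subgroup normalised by `H`. -/
theorem exists_normal_proper_of_lt {G : Type*} [Group G] [Finite G] {p : ℕ} [Fact p.Prime]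
    (H : Subgroup G) (hH : IsPGroup p H) (K : Subgroup G) (hK : K < H) :
    ∃ M : Subgroup G, K ≤ M ∧ M < H ∧ ∀ h ∈ H, ∀ x ∈ M, h * x * h⁻¹ ∈ M := by
  have hne : K.subgroupOf H ≠ ⊤ := by
    intro h
    rw [subgroupOf_eq_top] at h
    exact absurd h (not_le_of_gt hK)
  obtain ⟨M0, hM0, hle⟩ := (eq_top_or_exists_le_coatom (K.subgroupOf H)).resolve_left hne
  have hnil : Group.IsNilpotent H := hH.isNilpotent
  have hM0n : M0.Normal := NormalizerCondition.normal_of_coatom M0 Group.normalizerCondition_of_isNilpotent hM0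
  refine ⟨M0.map H.subtype, ?_, ?_, ?_⟩
  · intro x hx
    exact ⟨⟨x, hK.le hx⟩, hle (mem_subgroupOf.mpr hx), rfl⟩
  · refine lt_of_le_of_ne (map_subtype_le M0) ?_
    intro heq
    apply hM0.1
    rw [eq_top_iff]
    intro y _
    have hy : (y : G) ∈ M0.map H.subtype := by rw [heq]; exact y.2
    obtain ⟨z, hz, hzy⟩ := hy
    have : z = y := Subtype.ext hzy
    exact this ▸ hz
  · rintro h hh _ ⟨z, hz, rfl⟩
    exact ⟨⟨h, hh⟩ * z * ⟨h, hh⟩⁻¹, hM0n.conj_mem z hz ⟨h, hh⟩, rfl⟩

def PowGood {G : Type*} [Group G] (q : ℕ) (H : Subgroup G) : Prop :=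
  ∀ a ∈ H, ∀ b ∈ H, (a ^ q = b ^ q ↔ (a * b⁻¹) ^ q = 1)

theorem conj_pow' {G : Type*} [Group G] (u v : G) (n : ℕ) : (v⁻¹ * u * v) ^ n = v⁻¹ * u ^ n * v := by
  have := conj_pow (a := v⁻¹) (b := u) (i := n)
  simpa using this

theorem mul_pow_of_conj {G : Type*} [Group G] [Finite G] {p : ℕ} [Fact p.Prime]
    (hG : Cfsg.IsRegularPGroup p G) (k : ℕ) (H : Subgroup G)
    (IH : ∀ K : Subgroup G, K < H → PowGood (p ^ k) K)
    (u v : G) (hgen : H = closure {u, v}) (huv : (v⁻¹ * u * v) ^ (p ^ k) = u ^ (p ^ k)) :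
    ∀ x ∈ H, ∀ y ∈ H, (x * y) ^ (p ^ k) = x ^ (p ^ k) * y ^ (p ^ k) := by
  intro x hx y hy
  have hHp : IsPGroup p H := hG.1.to_subgroup H
  have huH : u ∈ H := hgen ▸ subset_closure (by simp)
  have hvH : v ∈ H := hgen ▸ subset_closure (by simp)
  by_cases hcyc : zpowers u = H
  · have hx' : x ∈ zpowers u := hcyc ▸ hx
    have hy' : y ∈ zpowers u := hcyc ▸ hy
    obtain ⟨i, rfl⟩ := mem_zpowers_iff.mp hx'
    obtain ⟨j, rfl⟩ := mem_zpowers_iff.mp hy'
    exact (Commute.zpow_zpow_self u i j).mul_pow _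
  · have hlt : zpowers u < H := lt_of_le_of_ne (zpowers_le.mpr huH) hcyc
    obtain ⟨M, hKM, hMH, hMn⟩ := exists_normal_proper_of_lt H hHp _ hlt
    have huM : u ∈ M := hKM (mem_zpowers u)
    have hgood := IH M hMH
    let W : Subgroup G :=
      { carrier := {x | x ∈ M ∧ x ^ (p ^ k) = 1}
        one_mem' := ⟨M.one_mem, one_pow _⟩
        mul_mem' := by
          rintro a b ⟨ha, ha'⟩ ⟨hb, hb'⟩
          refine ⟨M.mul_mem ha hb, ?_⟩
          have := (hgood a ha b⁻¹ (M.inv_mem hb)).mp (by rw [ha', inv_pow, hb', inv_one])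
          simpa using this
        inv_mem' := by
          rintro a ⟨ha, ha'⟩
          exact ⟨M.inv_mem ha, by rw [inv_pow, ha', inv_one]⟩ }
    have hW : ∀ z, z ∈ W ↔ (z ∈ M ∧ z ^ (p ^ k) = 1) := fun z => Iff.rfl
    have hWn : ∀ h ∈ H, ∀ z ∈ W, h * z * h⁻¹ ∈ W := by
      intro h hh z hz
      rw [hW] at hz ⊢
      exact ⟨hMn h hh z hz.1, by rw [conj_pow, hz.2]; group⟩
    have hconjM : v⁻¹ * u * v ∈ M := by
      have := hMn v⁻¹ (H.inv_mem hvH) u huM
      simpa using this
    have hw : v⁻¹ * u * v * u⁻¹ ∈ W :=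
      (hW _).mpr ⟨M.mul_mem hconjM (M.inv_mem huM), (hgood _ hconjM u huM).mp huv⟩
    have huvW : ⁅u, v⁆ ∈ W := by
      have h1 := hWn v hvH _ hw
      have h2 : v * (v⁻¹ * u * v * u⁻¹) * v⁻¹ = ⁅u, v⁆ := by
        simp only [commutatorElement_def]; group
      rwa [h2] at h1
    have hcomm : ⁅H, H⁆ ≤ W := by
      rw [hgen]
      apply commutator_closure_le
      · rw [← hgen]; exact hWn
      · intro s hs t ht
        simp only [Set.mem_insert_iff, Set.mem_singleton_iff] at hs ht
        rcases hs with rfl | rfl <;> rcases ht with rfl | rfl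
        · simp
        · exact huvW
        · rw [← commutatorElement_inv]; exact W.inv_mem huvW
        · simp
    obtain ⟨c, hc, hxy⟩ := hG.2 x y k
    have hcl : closure ({x, y} : Set G) ≤ H := by
      rw [closure_le]
      intro z hz
      simp only [Set.mem_insert_iff, Set.mem_singleton_iff] at hz
      rcases hz with rfl | rfl
      · exact hx
      · exact hy
    have hbot : Cfsg.powerClosure p k ⁅closure ({x, y} : Set G), closure ({x, y} : Set G)⁆ ≤ ⊥ := by
      unfold Cfsg.powerClosure
      rw [closure_le]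
      rintro z ⟨t, ht, rfl⟩
      have := hcomm (commutator_mono hcl hcl ht)
      simpa using ((hW _).mp this).2
    have hc1 : c = 1 := by simpa using hbot hc
    rw [hxy, hc1, mul_one]

theorem powGood_of_regular {G : Type*} [Group G] [Finite G] {p : ℕ} [Fact p.Prime]
    (hG : Cfsg.IsRegularPGroup p G) (k : ℕ) (H : Subgroup G) : PowGood (p ^ k) H := by
  induction H using WellFoundedLT.induction with
  | ind H IH =>
    intro a ha b hb
    have hKH : closure ({a, b} : Set G) ≤ H := by
      rw [closure_le]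
      intro z hz
      simp only [Set.mem_insert_iff, Set.mem_singleton_iff] at hz
      rcases hz with rfl | rfl
      · exact ha
      · exact hb
    rcases eq_or_lt_of_le hKH with h | h
    · constructor
      · intro hab
        have hmul := mul_pow_of_conj hG k H IH a b h.symm (by
          rw [conj_pow', hab]; group)
        rw [hmul a ha b⁻¹ (H.inv_mem hb), inv_pow, hab, mul_inv_cancel]
      · intro hc
        have hgen : H = closure {a * b⁻¹, b} := by
          rw [← h]
          apply le_antisymm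
          · rw [closure_le]
            intro z hz
            simp only [Set.mem_insert_iff, Set.mem_singleton_iff] at hz
            rcases hz with rfl | rfl
            · have h1 : z * b⁻¹ ∈ closure ({z * b⁻¹, b} : Set G) := subset_closure (by simp)
              have h2 : b ∈ closure ({z * b⁻¹, b} : Set G) := subset_closure (by simp)
              have := mul_mem h1 h2
              simpa using this
            · exact subset_closure (by simp)
          · rw [closure_le]
            intro z hz
            simp only [Set.mem_insert_iff, Set.mem_singleton_iff] at hz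
            have h1 : a ∈ closure ({a, b} : Set G) := subset_closure (by simp)
            have h2 : b ∈ closure ({a, b} : Set G) := subset_closure (by simp)
            rcases hz with rfl | rfl
            · exact mul_mem h1 (inv_mem h2)
            · exact h2
        have hmul := mul_pow_of_conj hG k H IH (a * b⁻¹) b hgen (by
          rw [conj_pow', hc]; group)
        have := hmul (a * b⁻¹) (H.mul_mem ha (H.inv_mem hb)) b hb
        rw [inv_mul_cancel_right, hc, one_mul] at this
        exact this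
    · exact IH _ h a (subset_closure (by simp)) b (subset_closure (by simp))

theorem regular_pow_eq_iff {G : Type*} [Group G] [Finite G] {p : ℕ} [Fact p.Prime]
    (hG : Cfsg.IsRegularPGroup p G) (a b : G) (k : ℕ) :
    a ^ p ^ k = b ^ p ^ k ↔ (a * b⁻¹) ^ p ^ k = 1 :=
  powGood_of_regular hG k ⊤ a (mem_top a) b (mem_top b)

end Cfsg.Agent.Lib.Helper23
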